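-- Project DG33 (S3670), package [P3] (helper84): characters of a nonabelian group of order 27
-- on its centre.
import Mathlib
import Cfsg.Agent.Lib.Helper14.DG33.Defs
import Cfsg.Agent.Lib.Helper39.CharGen
import Cfsg.Agent.Lib.Helper75.CharDecomp
import Cfsg.Agent.Lib.Helper79.CharSum

set_option autoImplicit false

namespace Cfsg.Agent.Lib.Helper84.DG33

open Cfsg Cfsg.Agent.Lib.Helper14.DG33
open scoped ComplexConjugate

universe u

theorem cube_root_cases {ω c : ℂ} (hω3 : ω ^ 3 = 1) (hsum : 1 + ω + ω ^ 2 = 0) (hc3 : c ^ 3 = 1) :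
    c = 1 ∨ c = ω ∨ c = ω ^ 2 := by
  have h : (c - 1) * (c - ω) * (c - ω ^ 2) = 0 := by
    linear_combination hc3 + (-c ^ 2 + c) * hsum + (c - 1) * hω3
  rcases mul_eq_zero.mp h with h | h
  · rcases mul_eq_zero.mp h with h | h
    · exact Or.inl (sub_eq_zero.mp h)
    · exact Or.inr (Or.inl (sub_eq_zero.mp h))
  · exact Or.inr (Or.inr (sub_eq_zero.mp h))

theorem irr_case {P : Type u} [Group P] [Fintype P] (Z : Subgroup P) (hP : Nat.card P = 27)
    (hZ : Nat.card Z = 3) (hcent : ∀ z ∈ Z, ∀ p : P, z * p = p * z)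
    (hcomm : ∀ p q : P, p * q * p⁻¹ * q⁻¹ ∈ Z) (hnc : ∀ p : P, p ∉ Z → ∃ q : P, p * q ≠ q * p)
    {ω : ℂ} (hω3 : ω ^ 3 = 1) (hsum : 1 + ω + ω ^ 2 = 0)
    (z : P) (hz : z ∈ Z) (hz1 : z ≠ 1) {η : P → ℂ} (hη : IsIrrCharacter P η) :
    ∃ u v : ℕ, η 1 - η z = 3 * (1 - ω) * u + 3 * (1 - ω ^ 2) * v ∧
      η z - η z⁻¹ = 3 * (ω - ω ^ 2) * ((u : ℂ) - v) := by
  classical
  have hz3 : z ^ 3 = 1 := by
    have h := pow_card_eq_one' (G := Z) (x := ⟨z, hz⟩)
    rw [hZ] at h
    have h' := congrArg Subtype.val h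
    simpa using h'
  have hzzz : z * (z * z) = 1 := by
    rw [← mul_assoc, ← pow_two, ← pow_succ]
    exact hz3
  have hzinv : z⁻¹ = z * z := inv_eq_of_mul_eq_one_right hzzz
  have hord : orderOf z = 3 := by
    have : Fact (Nat.Prime 3) := ⟨by norm_num⟩
    exact orderOf_eq_prime hz3 hz1
  have hZel : ∀ k ∈ Z, k = 1 ∨ k = z ∨ k = z * z := by
    intro k hk
    have : Fact (Nat.Prime 3) := ⟨by norm_num⟩
    have htop : Subgroup.zpowers (⟨z, hz⟩ : Z) = ⊤ :=
      zpowers_eq_top_of_prime_card hZ (by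
        intro h
        apply hz1
        exact congrArg Subtype.val h)
    have hmem : (⟨k, hk⟩ : Z) ∈ Subgroup.zpowers (⟨z, hz⟩ : Z) := by rw [htop]; trivial
    obtain ⟨j, hj⟩ := Subgroup.mem_zpowers_iff.mp hmem
    have hj' : z ^ j = k := by
      have := congrArg Subtype.val hj
      simpa using this
    have hj3 : z ^ (j % 3) = k := by
      rw [← hj']
      have := zpow_mod_orderOf z j
      rw [hord] at this
      exact_mod_cast this
    have h0 := Int.emod_nonneg j (by norm_num : (3 : ℤ) ≠ 0)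
    have h1 := Int.emod_lt_of_pos j (by norm_num : (0 : ℤ) < 3)
    obtain ⟨r, hr⟩ : ∃ r, r = j % 3 := ⟨_, rfl⟩
    rw [← hr] at hj3 h0 h1
    interval_cases r
    · left; rw [← hj3]; simp
    · right; left; rw [← hj3]; simp
    · right; right; rw [← hj3]
      show z ^ (2 : ℤ) = z * z
      rw [zpow_two]
  obtain ⟨n, ρ, hρ, hρη⟩ := id hη
  have := hρ
  obtain ⟨c, hcn, hc⟩ := Cfsg.Agent.Lib.Helper39.central_twist ρ z (hcent z hz)
  rw [hρη] at hc
  obtain ⟨d, hdpos, hd⟩ := Cfsg.Agent.Lib.Helper79.irr_one_eq hη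
  have hne1 : η 1 ≠ 0 := Cfsg.Agent.Lib.Helper79.irr_one_ne_zero hη
  have hηz : η z = c * η 1 := by
    have := hc 1
    rwa [mul_one] at this
  have hηzz : η (z * z) = c * (c * η 1) := by rw [hc, hηz]
  have hηzi : η z⁻¹ = c ^ 2 * η 1 := by rw [hzinv, hηzz]; ring
  have hc3 : c ^ 3 = 1 := by
    have h1 : η (z * (z * z)) = c * (c * (c * η 1)) := by rw [hc, hηzz]
    rw [hzzz] at h1
    have h3 : (c ^ 3 - 1) * η 1 = 0 := by linear_combination -h1
    rcases mul_eq_zero.mp h3 with h | h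
    · exact sub_eq_zero.mp h
    · exact absurd h hne1
  by_cases hc1 : c = 1
  · refine ⟨0, 0, ?_, ?_⟩
    · rw [hηz, hc1]; simp
    · rw [hηz, hηzi, hc1]; simp
  · -- η vanishes off Z
    have hc2 : c ^ 2 ≠ 1 := by
      intro h
      apply hc1
      have : c ^ 3 = c := by rw [pow_succ, h, one_mul]
      rw [← this, hc3]
    have hvan : ∀ g, g ∉ Z → η g = 0 := by
      intro g hg
      obtain ⟨q, hq⟩ := hnc g hg
      have hk : q * g * q⁻¹ * g⁻¹ ∈ Z := hcomm q g
      have hk1 : q * g * q⁻¹ * g⁻¹ ≠ 1 := by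
        intro h
        apply hq
        have h' : q * g = g * q := by
          calc q * g = (q * g * q⁻¹ * g⁻¹) * (g * q) := by group
            _ = g * q := by rw [h, one_mul]
        exact h'.symm
      have hconj : η (q * g * q⁻¹) = η g := Cfsg.Agent.Lib.Helper79.irr_conj_eq hη g q
      have hkg : q * g * q⁻¹ = (q * g * q⁻¹ * g⁻¹) * g := by group
      rcases hZel _ hk with h | h | h
      · exact absurd h hk1
      · rw [hkg, h, hc] at hconj
        have h4 : (c - 1) * η g = 0 := by linear_combination hconj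
        rcases mul_eq_zero.mp h4 with h' | h'
        · exact absurd (sub_eq_zero.mp h') hc1
        · exact h'
      · rw [hkg, h, mul_assoc, hc, hc] at hconj
        have h4 : (c ^ 2 - 1) * η g = 0 := by linear_combination hconj
        rcases mul_eq_zero.mp h4 with h' | h'
        · exact absurd (sub_eq_zero.mp h') hc2
        · exact h'
    have hnorm := Cfsg.Agent.Lib.Helper3.classInner_irr_self hη
    unfold classInner at hnorm
    rw [hP] at hnorm
    have hz_ne : (1 : P) ≠ z := fun h => hz1 h.symm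
    have hzz_ne1 : (1 : P) ≠ z * z := by
      intro h
      apply hz1
      have h5 : z⁻¹ = 1 := by rw [hzinv, ← h]
      exact inv_eq_one.mp h5
    have hzz_nez : z ≠ z * z := by
      intro h
      apply hz1
      have h5 : z * 1 = z * z := by rw [mul_one]; exact h
      exact (mul_left_cancel h5).symm
    have hsumZ : ∑ g : P, η g * conj (η g) =
        η 1 * conj (η 1) + (η z * conj (η z) + η (z * z) * conj (η (z * z))) := by
      rw [← Finset.sum_subset (Finset.subset_univ ({1, z, z * z} : Finset P))]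
      · rw [Finset.sum_insert, Finset.sum_pair hzz_nez]
        simp only [Finset.mem_insert, Finset.mem_singleton, not_or]
        exact ⟨hz_ne, hzz_ne1⟩
      · intro g _ hg
        have hgZ : g ∉ Z := by
          intro hgZ
          apply hg
          rcases hZel g hgZ with h | h | h <;> simp [h]
        rw [hvan g hgZ, zero_mul]
    have hcc : c * conj c = 1 := by
      rw [Complex.mul_conj, Complex.normSq_eq_norm_sq, hcn]
      simp
    have hd2 : (d : ℂ) * d = 9 := by
      rw [hsumZ, hηz, hηzz, hd] at hnorm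
      simp only [map_mul, Complex.conj_natCast] at hnorm
      have h6 : (27 : ℂ)⁻¹ * ((d : ℂ) * d + (c * conj c * ((d : ℂ) * d) +
          (c * conj c) * (c * conj c) * ((d : ℂ) * d))) = 1 := by
        rw [← hnorm]
        push_cast
        ring
      rw [hcc] at h6
      have h7 : (27 : ℂ) ≠ 0 := by norm_num
      field_simp at h6
      linear_combination h6 / 3
    have hd3 : d = 3 := by
      have h8 : d * d = 9 := by exact_mod_cast hd2
      have h9 : d ≤ 3 := by nlinarith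
      interval_cases d <;> omega
    rw [hd3] at hd
    rcases cube_root_cases hω3 hsum hc3 with h | h | h
    · exact absurd h hc1
    · refine ⟨1, 0, ?_, ?_⟩
      · rw [hηz, hd, h]; push_cast; ring
      · rw [hηz, hηzi, hd, h]; push_cast; ring
    · refine ⟨0, 1, ?_, ?_⟩
      · rw [hηz, hd, h]; push_cast; ring
      · rw [hηz, hηzi, hd, h]; push_cast
        linear_combination (-3 * ω) * hω3

theorem pkgP3 : PkgP3.{u} := by
  intro P _ _ Z hP hZ hcent hcomm hnc θ hθ z hz hz1 hzz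
  classical
  have : Fintype P := Fintype.ofFinite P
  have : Fintype (IrrCharacter P) := Fintype.ofFinite _
  obtain ⟨ω, hω⟩ : ∃ ω : ℂ, IsPrimitiveRoot ω 3 :=
    ⟨_, Complex.isPrimitiveRoot_exp 3 (by norm_num)⟩
  have hω3 : ω ^ 3 = 1 := hω.pow_eq_one
  have hω1 : ω ≠ 1 := hω.ne_one (by norm_num)
  have hsum : 1 + ω + ω ^ 2 = 0 := by
    have h : (ω - 1) * (1 + ω + ω ^ 2) = 0 := by linear_combination hω3
    rcases mul_eq_zero.mp h with h | h
    · exact absurd (sub_eq_zero.mp h) hω1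
    · exact h
  obtain ⟨m, -, hm⟩ := Cfsg.Agent.Lib.Helper75.char_eq_sum_irr hθ
  choose u v huv1 huv2 using fun ψ : IrrCharacter P =>
    irr_case Z hP hZ hcent hcomm hnc hω3 hsum z hz hz1 ψ.2
  have hval : ∀ g, θ g = ∑ ψ : IrrCharacter P, (m ψ : ℂ) * (ψ : P → ℂ) g := by
    intro g
    conv_lhs => rw [hm]
    simp [Finset.sum_apply]
  have h1 : θ 1 - θ z = 3 * (1 - ω) * ((∑ ψ, m ψ * u ψ : ℕ) : ℂ) +
      3 * (1 - ω ^ 2) * ((∑ ψ, m ψ * v ψ : ℕ) : ℂ) := by
    rw [hval 1, hval z, ← Finset.sum_sub_distrib]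
    push_cast
    rw [Finset.mul_sum, Finset.mul_sum, ← Finset.sum_add_distrib]
    apply Finset.sum_congr rfl
    intro ψ _
    linear_combination (m ψ : ℂ) * huv1 ψ
  have h2 : θ z - θ z⁻¹ = 3 * (ω - ω ^ 2) * (((∑ ψ, m ψ * u ψ : ℕ) : ℂ) -
      ((∑ ψ, m ψ * v ψ : ℕ) : ℂ)) := by
    rw [hval z, hval z⁻¹, ← Finset.sum_sub_distrib]
    push_cast
    rw [← Finset.sum_sub_distrib, Finset.mul_sum]
    apply Finset.sum_congr rfl
    intro ψ _
    linear_combination (m ψ : ℂ) * huv2 ψ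
  have hω0 : ω ≠ 0 := by
    intro h
    rw [h] at hω3
    norm_num at hω3
  have hne : 3 * (ω - ω ^ 2) ≠ 0 := by
    intro h
    have h3 : ω * (1 - ω) = 0 := by linear_combination h / 3
    rcases mul_eq_zero.mp h3 with h' | h'
    · exact hω0 h'
    · exact hω1 (sub_eq_zero.mp h').symm
  have heq : ((∑ ψ, m ψ * u ψ : ℕ) : ℂ) = ((∑ ψ, m ψ * v ψ : ℕ) : ℂ) := by
    rw [hzz, sub_self] at h2
    rcases mul_eq_zero.mp h2.symm with h | h
    · exact absurd h hne
    · exact sub_eq_zero.mp h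
  refine ⟨∑ ψ, m ψ * u ψ, ?_⟩
  rw [h1, ← heq]
  linear_combination (-3 * ((∑ ψ, m ψ * u ψ : ℕ) : ℂ)) * hsum

end Cfsg.Agent.Lib.Helper84.DG33
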